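import Mathlib
import Cfsg.Prelude.Def_Characters
import Cfsg.Agent.H25.CharValues
import Cfsg.Agent.H26.CharBasic
import Cfsg.Agent.H45.Galois

/-!
# Galois action on characters of degree less than `p - 1`

* An element of `p`-power order on which a character of degree `d < p - 1` is Galois invariant
  acts trivially.
* Blichfeldt: a group with a faithful representation of degree `n` has elements of order divisible
  by `p * q` for all distinct prime divisors `p, q > n + 1` of its order.
-/

set_option autoImplicit false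

open Module
open scoped ComplexConjugate

namespace Cfsg.Agent.H21.SmallDegree

variable {G : Type*} [Group G] [Finite G]

/-- An element of `p`-power order whose powers have rational character values in a representation
of degree less than `p - 1` acts trivially. -/
theorem apply_eq_one_of_fixed {V : Type*} [AddCommGroup V] [Module ℂ V] [FiniteDimensional ℂ V]
    (σ : Representation ℂ G V) {p : ℕ} (hp : p.Prime) (hd : finrank ℂ V + 1 < p) :
    ∀ (a : ℕ) (x : G), x ^ p ^ a = 1 → (∀ y ∈ Subgroup.zpowers x, ∀ k : ℕ, k.Coprime p →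
      σ.character (y ^ k) = σ.character y) → σ x = 1 := by
  intro a
  induction a with
  | zero => intro x hx _; rw [pow_zero, pow_one] at hx; rw [hx, map_one]
  | succ a ih =>
    intro x hx hfix
    have hxp : σ (x ^ p) = 1 := by
      refine ih (x ^ p) (by rw [← pow_mul, ← pow_succ']; exact hx) fun y hy k hk => hfix y ?_ k hk
      exact Subgroup.zpowers_le.2 (pow_mem (Subgroup.mem_zpowers x) p) hy
    obtain ⟨b, μ, hb, hμ⟩ := H25.exists_eigenbasis_of_pow_eq_one (σ x)
      (Nat.cast_ne_zero.2 hp.pos.ne' : ((p : ℕ) : ℂ) ≠ 0) (by rw [← map_pow]; exact hxp)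
    have hpow : ∀ j i, σ (x ^ j) (b i) = μ i ^ j • b i := by
      intro j i
      induction j with
      | zero => simp
      | succ j ihj =>
        rw [pow_succ', map_mul, Module.End.mul_apply, ihj, map_smul, hb, smul_smul, pow_succ]
    have hchar : ∀ j, σ.character (x ^ j) = ∑ i, μ i ^ j := fun j =>
      H25.trace_eq_sum_of_eigenbasis _ b _ (hpow j)
    classical
    set m := (Finset.univ.filter fun i => μ i = 1).card with hm
    have hsum : ∑ j ∈ Finset.range p, σ.character (x ^ j) = (p : ℂ) * m := by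
      simp only [hchar]
      rw [Finset.sum_comm, ← Finset.sum_filter_add_sum_filter_not _ (fun i => μ i = 1),
        Finset.sum_eq_zero (s := Finset.univ.filter fun i => ¬ μ i = 1), add_zero]
      · rw [Finset.sum_congr rfl (fun i hi => by
          rw [show μ i = 1 from (Finset.mem_filter.1 hi).2]), Finset.sum_const, nsmul_eq_mul]
        simp [hm, mul_comm]
      · intro i hi
        rw [geom_sum_eq (Finset.mem_filter.1 hi).2, hμ i, sub_self, zero_div]
    have hconst : ∀ j ∈ (Finset.range p).erase 0, σ.character (x ^ j) = σ.character x := by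
      intro j hj
      obtain ⟨hj0, hjp⟩ := Finset.mem_erase.1 hj
      refine hfix x (Subgroup.mem_zpowers x) j (Nat.Coprime.symm ?_)
      exact hp.coprime_iff_not_dvd.2 (Nat.not_dvd_of_pos_of_lt (Nat.pos_of_ne_zero hj0)
        (Finset.mem_range.1 hjp))
    rw [← Finset.add_sum_erase _ _ (Finset.mem_range.2 hp.pos), Finset.sum_congr rfl hconst,
      pow_zero, σ.char_one, Finset.sum_const, Finset.card_erase_of_mem
        (Finset.mem_range.2 hp.pos), Finset.card_range, nsmul_eq_mul] at hsum
    obtain ⟨z, hz⟩ : ∃ z : ℤ, σ.character x = (z : ℂ) := by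
      have hint := H25.isIntegral_char σ x
      have hp1 : ((p - 1 : ℕ) : ℂ) ≠ 0 := Nat.cast_ne_zero.2 (by have := hp.two_le; omega)
      set r : ℚ := ((p : ℚ) * m - finrank ℂ V) / ((p - 1 : ℕ) : ℚ)
      have hr : σ.character x = algebraMap ℚ ℂ r := by
        rw [eq_ratCast]
        simp only [r, Rat.cast_div, Rat.cast_sub, Rat.cast_mul, Rat.cast_natCast]
        rw [eq_div_iff hp1]
        linear_combination hsum
      rw [hr, isIntegral_algebraMap_iff (algebraMap ℚ ℂ).injective] at hint
      obtain ⟨z, hz⟩ := IsIntegrallyClosed.isIntegral_iff.1 hint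
      exact ⟨z, by rw [hr, ← hz]; simp⟩
    rw [hz] at hsum
    have hmle : m ≤ finrank ℂ V := by
      simpa [hm] using Finset.card_filter_le Finset.univ (fun i => μ i = 1)
    have key : m = finrank ℂ V := by
      have h1 : (finrank ℂ V : ℤ) + ((p - 1 : ℕ) : ℤ) * z = (p : ℤ) * m := by exact_mod_cast hsum
      have hp' : ((p - 1 : ℕ) : ℤ) = (p : ℤ) - 1 := by
        rw [Nat.cast_sub hp.one_le, Nat.cast_one]
      rw [hp'] at h1
      have hdvd : ((p : ℤ) - 1) ∣ ((finrank ℂ V : ℤ) - m) := ⟨m - z, by linarith⟩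
      have h0 : (finrank ℂ V : ℤ) - m = 0 := by
        refine Int.eq_zero_of_dvd_of_nonneg_of_lt ?_ ?_ hdvd
        · omega
        · omega
      omega
    have hall : ∀ i, μ i = 1 := by
      intro i
      have : (Finset.univ.filter fun i => μ i = 1) = Finset.univ := by
        rw [← Finset.card_eq_iff_eq_univ, Fintype.card_fin]; exact key
      have hi : i ∈ Finset.univ.filter (fun i => μ i = 1) := by rw [this]; exact Finset.mem_univ i
      exact (Finset.mem_filter.1 hi).2
    exact b.ext fun i => by simp [hb, hall]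

/-- A residue class modulo the `p`-part of `N` completed by `1` modulo the `p'`-part. -/
theorem exists_crt {N p : ℕ} (hN : N ≠ 0) (hp : p.Prime) {k₀ : ℕ} (hk₀ : k₀.Coprime p) :
    ∃ k : ℕ, k.Coprime N ∧ k ≡ k₀ [MOD p ^ N.factorization p] ∧
      k ≡ 1 [MOD N / p ^ N.factorization p] := by
  have hco : Nat.Coprime (p ^ N.factorization p) (N / p ^ N.factorization p) :=
    (Nat.coprime_ordCompl hp hN).pow_left _
  obtain ⟨k, hk1, hk2⟩ := Nat.chineseRemainder hco k₀ 1
  refine ⟨k, ?_, hk1, hk2⟩
  rw [← Nat.mul_div_cancel' (Nat.ordProj_dvd N p)]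
  refine Nat.Coprime.mul_right ?_ ?_
  · show Nat.gcd k _ = 1
    rw [hk1.gcd_eq]
    exact hk₀.pow_right _
  · show Nat.gcd k _ = 1
    rw [hk2.gcd_eq, Nat.gcd_one_left]

/-- The key orthogonality: if every element is fixed by one of two coprime power maps, then one
of them fixes any given irreducible character. -/
theorem galIrr_fixed_or_fixed (χ : Cfsg.IrrCharacter G) {k l : ℕ} (hk : k.Coprime (Nat.card G))
    (hl : l.Coprime (Nat.card G)) (hcov : ∀ g : G, g ^ k = g ∨ g ^ l = g) :
    H45.galIrr hk χ = χ ∨ H45.galIrr hl χ = χ := by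
  classical
  have : Fintype G := Fintype.ofFinite G
  set A := H45.galIrr hk χ
  set B := H45.galIrr hl χ
  have h0 : Cfsg.classInner (A.1 - χ.1) (B.1 - χ.1) = 0 := by
    unfold Cfsg.classInner
    rw [Finset.sum_eq_zero, mul_zero]
    intro g _
    rcases hcov g with h | h
    · have : A.1 g - χ.1 g = 0 := by show χ.1 (g ^ k) - χ.1 g = 0; rw [h, sub_self]
      rw [Pi.sub_apply, this, zero_mul]
    · have : B.1 g - χ.1 g = 0 := by show χ.1 (g ^ l) - χ.1 g = 0; rw [h, sub_self]
      rw [Pi.sub_apply, Pi.sub_apply, this, map_zero, mul_zero]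
  rw [H26.classInner_sub_left, H26.classInner_sub_right, H26.classInner_sub_right,
    H26.classInner_irr, H26.classInner_irr, H26.classInner_irr, H26.classInner_irr,
    if_pos rfl] at h0
  by_contra hcon
  push Not at hcon
  rw [if_neg hcon.1, if_neg (Ne.symm hcon.2)] at h0
  split_ifs at h0 <;> norm_num at h0

/-- Without elements of order divisible by `p * q`, every irreducible representation of degree
less than `p - 1` and `q - 1` is trivial on `p`-elements or trivial on `q`-elements. -/
theorem trivial_or_trivial (χ : Cfsg.IrrCharacter G) {p q : ℕ} (hp : p.Prime) (hq : q.Prime)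
    {V : Type*} [AddCommGroup V] [Module ℂ V] [FiniteDimensional ℂ V] (σ : Representation ℂ G V)
    (hσ : σ.character = χ.1) (hdp : finrank ℂ V + 1 < p) (hdq : finrank ℂ V + 1 < q)
    (hno : ∀ g : G, ¬ (p ∣ orderOf g ∧ q ∣ orderOf g))
    {x y : G} {a b : ℕ} (hx : x ^ p ^ a = 1) (hy : y ^ q ^ b = 1) : σ x = 1 ∨ σ y = 1 := by
  set N := Nat.card G
  have hN : N ≠ 0 := Nat.card_pos.ne'
  -- elements without `r`-part are fixed by the powers chosen for `r`
  have hfix : ∀ (r k : ℕ), r.Prime → k ≡ 1 [MOD N / r ^ N.factorization r] →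
      ∀ g : G, ¬ r ∣ orderOf g → g ^ k = g := by
    intro r k hr hk g hg
    have hd : orderOf g ∣ N / r ^ N.factorization r := by
      refine Nat.Coprime.dvd_of_dvd_mul_left ((hr.coprime_iff_not_dvd.2 hg).pow_left (N.factorization r)).symm ?_
      rw [Nat.mul_div_cancel' (Nat.ordProj_dvd N r)]
      exact orderOf_dvd_natCard g
    calc g ^ k = g ^ 1 := pow_eq_pow_iff_modEq.2 (hk.of_dvd hd)
      _ = g := pow_one g
  -- the values at `r`-elements
  have hpart : ∀ (r k k₀ : ℕ), r.Prime → k ≡ k₀ [MOD r ^ N.factorization r] →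
      ∀ (z : G) (c : ℕ), z ^ r ^ c = 1 → ∀ w ∈ Subgroup.zpowers z, w ^ k = w ^ k₀ := by
    intro r k k₀ hr hk z c hz w hw
    have hd : orderOf z ∣ r ^ N.factorization r := by
      obtain ⟨i, -, hi⟩ := (Nat.dvd_prime_pow hr).1 (orderOf_dvd_of_pow_eq_one hz)
      rw [hi]
      exact Nat.pow_dvd_pow r ((hr.pow_dvd_iff_le_factorization hN).1
        (hi ▸ orderOf_dvd_natCard z))
    exact pow_eq_pow_iff_modEq.2 (hk.of_dvd ((orderOf_dvd_of_mem_zpowers hw).trans hd))
  by_contra hcon
  push Not at hcon
  obtain ⟨hxn, hyn⟩ := hcon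
  obtain ⟨w, hw, k₀, hk₀, hne⟩ : ∃ w ∈ Subgroup.zpowers x, ∃ k₀ : ℕ, k₀.Coprime p ∧
      σ.character (w ^ k₀) ≠ σ.character w := by
    by_contra h
    push Not at h
    exact hxn (apply_eq_one_of_fixed σ hp hdp a x hx h)
  refine hyn (apply_eq_one_of_fixed σ hq hdq b y hy fun z hz l₀ hl₀ => ?_)
  obtain ⟨k, hkN, hkp, hk1⟩ := exists_crt hN hp hk₀
  obtain ⟨l, hlN, hlq, hl1⟩ := exists_crt hN hq hl₀
  have hcov : ∀ g : G, g ^ k = g ∨ g ^ l = g := by
    intro g
    by_cases hg : p ∣ orderOf g
    · exact Or.inr (hfix q l hq hl1 g fun h => hno g ⟨hg, h⟩)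
    · exact Or.inl (hfix p k hp hk1 g hg)
  rcases galIrr_fixed_or_fixed χ hkN hlN hcov with h | h
  · refine absurd ?_ hne
    rw [hσ, ← hpart p k k₀ hp hkp x a hx w hw]
    exact congrFun (congrArg Subtype.val h) w
  · rw [hσ, ← hpart q l l₀ hq hlq y b hy z hz]
    exact congrFun (congrArg Subtype.val h) z

/-- Blichfeldt: a group with a faithful representation of degree `n` has an element of order
divisible by `p * q` for distinct prime divisors `p, q` of its order greater than `n + 1`. -/
theorem exists_orderOf_dvd_both {V : Type*} [AddCommGroup V] [Module ℂ V] [FiniteDimensional ℂ V]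
    (ρ : Representation ℂ G V) (hinj : Function.Injective ρ) {p q : ℕ} (hp : p.Prime)
    (hq : q.Prime) (hpq : p ≠ q) (hnp : finrank ℂ V + 1 < p) (hnq : finrank ℂ V + 1 < q)
    (hpG : p ∣ Nat.card G) (hqG : q ∣ Nat.card G) :
    ∃ g : G, p ∣ orderOf g ∧ q ∣ orderOf g := by
  classical
  by_contra hno
  push Not at hno
  have : Fintype G := Fintype.ofFinite G
  haveI := Fact.mk hp
  haveI := Fact.mk hq
  obtain ⟨x, hx⟩ := exists_prime_orderOf_dvd_card' p hpG
  obtain ⟨y, hy⟩ := exists_prime_orderOf_dvd_card' q hqG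
  obtain ⟨s, hs⟩ := H26.exists_multiset_irr ρ
  have hdim : (finrank ℂ V : ℂ) = (s.map fun χ : Cfsg.IrrCharacter G => χ.1 1).sum := by
    rw [← ρ.char_one, hs, Pi.multiset_sum_apply, Multiset.map_map]; rfl
  set c := x * y * x⁻¹ * y⁻¹ with hc
  have hval : ρ.character c = (finrank ℂ V : ℂ) := by
    rw [hdim, hs, Pi.multiset_sum_apply, Multiset.map_map]
    refine congrArg Multiset.sum (Multiset.map_congr rfl fun χ hχ => ?_)
    show χ.1 c = χ.1 1
    obtain ⟨d, σ, hσ, hσχ⟩ := χ.2
    have hle : finrank ℂ (Fin d → ℂ) ≤ finrank ℂ V := by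
      obtain ⟨t, rfl⟩ := Multiset.exists_cons_of_mem hχ
      obtain ⟨k, hk⟩ := H26.exists_nat_char_one (H26.isCharacter_multiset_sum t)
      rw [Pi.multiset_sum_apply, Multiset.map_map] at hk
      rw [Multiset.map_cons, Multiset.sum_cons, show χ.1 1 = (finrank ℂ (Fin d → ℂ) : ℂ) by
        rw [← hσχ, σ.char_one],
        show (t.map fun χ : Cfsg.IrrCharacter G => χ.1 1).sum = (k : ℂ) from hk] at hdim
      have : finrank ℂ V = finrank ℂ (Fin d → ℂ) + k := by exact_mod_cast hdim
      omega
    have hcσ : σ c = 1 := by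
      rcases trivial_or_trivial χ hp hq σ hσχ (by omega) (by omega)
        (fun g hg => hno g hg.1 hg.2) (a := 1) (b := 1)
        (x := x) (y := y) (by rw [pow_one, ← hx, pow_orderOf_eq_one])
        (by rw [pow_one, ← hy, pow_orderOf_eq_one]) with h | h
      · have h' : σ x⁻¹ = 1 := by
          have := map_mul σ x⁻¹ x
          rw [inv_mul_cancel, map_one, h, mul_one] at this
          exact this.symm
        rw [hc, map_mul, map_mul, map_mul, h, h', mul_one, one_mul, ← map_mul, mul_inv_cancel,
          map_one]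
      · have h' : σ y⁻¹ = 1 := by
          have := map_mul σ y⁻¹ y
          rw [inv_mul_cancel, map_one, h, mul_one] at this
          exact this.symm
        rw [hc, map_mul, map_mul, map_mul, h, h', mul_one, mul_one, ← map_mul, mul_inv_cancel,
          map_one]
    rw [← hσχ]
    exact (show σ.character c = σ.character 1 by
      unfold Representation.character; rw [hcσ, map_one σ])
  have hc1 : c = 1 := hinj (by rw [map_one]; exact (H25.char_eq_degree_iff ρ c).1 hval)
  have hcomm : Commute x y := by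
    rw [hc, mul_inv_eq_one, mul_inv_eq_iff_eq_mul] at hc1
    exact hc1
  have hord : orderOf (x * y) = p * q := by
    rw [hcomm.orderOf_mul_eq_mul_orderOf_of_coprime (by
      rw [hx, hy]; exact (Nat.coprime_primes hp hq).2 hpq), hx, hy]
  exact hno (x * y) (hord ▸ dvd_mul_right p q) (hord ▸ dvd_mul_left q p)

end Cfsg.Agent.H21.SmallDegree
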