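import Mathlib
import Cfsg.Agent.H21.SmallDegree.Galois
import Cfsg.Agent.H27.SmallDegree
import Cfsg.Agent.H33.NilpotentHall

/-!
# Blichfeldt's theorem: abelian Hall subgroups for the primes exceeding the degree plus one
-/

set_option autoImplicit false

open Module
open scoped Pointwise

namespace Cfsg.Agent.H21.SmallDegree

universe u

/-- A subgroup with commuting elements is nilpotent. -/
theorem isNilpotent_of_comm {G : Type*} [Group G] (A : Subgroup G)
    (h : ∀ a ∈ A, ∀ b ∈ A, a * b = b * a) : Group.IsNilpotent A :=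
  @CommGroup.isNilpotent A
    { (inferInstance : Group A) with mul_comm := fun a b => Subtype.ext (h a a.2 b b.2) }

/-- `A` is an abelian Hall subgroup of `C` for the primes greater than `m`. -/
structure IsBigHall {G : Type*} [Group G] (m : ℕ) (A C : Subgroup G) : Prop where
  le : A ≤ C
  comm : ∀ a ∈ A, ∀ b ∈ A, a * b = b * a
  primes : ∀ q : ℕ, q.Prime → q ∣ Nat.card A → m < q
  index : ∀ q : ℕ, q.Prime → q ∣ A.relIndex C → q ≤ m

/-- An abelian Hall subgroup dominates the subgroups for the same primes. -/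
theorem IsBigHall.dominate {G : Type*} [Group G] [Finite G] {m : ℕ} {A C K : Subgroup G}
    (hA : IsBigHall m A C) (hKC : K ≤ C) (hK : ∀ q : ℕ, q.Prime → q ∣ Nat.card K → m < q) :
    ∃ c ∈ C, K ≤ MulAut.conj c • A := by
  have hcA : Nat.card (A.subgroupOf C) = Nat.card A :=
    Nat.card_congr (Subgroup.subgroupOfEquivOfLe hA.le).toEquiv
  have hcK : Nat.card (K.subgroupOf C) = Nat.card K :=
    Nat.card_congr (Subgroup.subgroupOfEquivOfLe hKC).toEquiv
  obtain ⟨c, hc⟩ := H33.exists_conj_of_nilpotent_hall _ (A.subgroupOf C) (K.subgroupOf C)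
    (isNilpotent_of_comm _ fun a ha b hb => Subtype.ext (hA.comm a ha b hb))
    (by
      rw [hcA]
      refine Nat.coprime_of_dvd fun q hq h1 h2 => ?_
      have := hA.primes q hq h1
      have := hA.index q hq h2
      omega)
    (fun q hq hqK => by
      rw [hcK] at hqK
      rw [hcA]
      have h1 : q ∣ Nat.card A * A.relIndex C := by
        rw [← hcA, Subgroup.relIndex, Subgroup.card_mul_index]
        exact hqK.trans (Subgroup.card_dvd_of_le hKC)
      exact (hq.dvd_mul.1 h1).resolve_right fun h2 => by
        have := hA.index q hq h2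
        have := hK q hq hqK
        omega)
    rfl
  refine ⟨c, c.2, fun k hk => ?_⟩
  have h1 : (⟨k, hKC hk⟩ : C) ∈ MulAut.conj c • A.subgroupOf C := hc hk
  rw [Subgroup.mem_pointwise_smul_iff_inv_smul_mem] at h1 ⊢
  exact h1

/-- Blichfeldt: a finite group with a faithful representation of degree `n` has an abelian Hall
subgroup for the primes greater than `n + 1`. -/
theorem exists_isBigHall {V : Type*} [AddCommGroup V] [Module ℂ V] [FiniteDimensional ℂ V] :
    ∀ (N : ℕ) {G : Type u} [Group G] [Finite G] (ρ : Representation ℂ G V),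
      Function.Injective ρ → Nat.card G ≤ N →
      ∃ A : Subgroup G, IsBigHall (finrank ℂ V + 1) A ⊤ := by
  intro N
  induction N with
  | zero => intro G _ _ ρ _ h; exact absurd Nat.card_pos (by omega : ¬ 0 < Nat.card G)
  | succ N ih =>
  intro G _ _ ρ hinj hN
  classical
  set m := finrank ℂ V + 1 with hm
  -- subgroups for the large primes are abelian
  have hab : ∀ K : Subgroup G, (∀ q : ℕ, q.Prime → q ∣ Nat.card K → m < q) →
      ∀ a ∈ K, ∀ b ∈ K, a * b = b * a := by
    intro K hK a ha b hb
    have := H27.commute_of_degree_lt_prime (G := K) (ρ.comp K.subtype)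
      (hinj.comp K.subtype_injective) (fun q hq hqK => by have := hK q hq hqK; omega)
      ⟨a, ha⟩ ⟨b, hb⟩
    exact congrArg Subtype.val this
  -- proper subgroups
  have hsub : ∀ C : Subgroup G, C ≠ ⊤ → ∃ A : Subgroup G, IsBigHall m A C := by
    intro C hC
    have hlt : Nat.card C < Nat.card G :=
      lt_of_le_of_ne (Subgroup.card_le_card_group C)
        fun h => hC (Subgroup.eq_top_of_card_eq C h)
    obtain ⟨A, hA⟩ := ih (G := C) (ρ.comp C.subtype) (hinj.comp C.subtype_injective) (by omega)
    refine ⟨A.map C.subtype, Subgroup.map_subtype_le A, ?_, fun q hq h => hA.primes q hq ?_,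
      fun q hq h => hA.index q hq ?_⟩
    · rintro a ⟨a', ha', rfl⟩ b ⟨b', hb', rfl⟩
      exact congrArg Subtype.val (hA.comm a' ha' b' hb')
    · rwa [Subgroup.card_map_of_injective C.subtype_injective] at h
    · rw [Subgroup.relIndex, Subgroup.subgroupOf,
        Subgroup.comap_map_eq_self_of_injective C.subtype_injective] at h
      rwa [Subgroup.relIndex_top_right]
  by_cases hZ : ∃ x ∈ Subgroup.center G, (orderOf x).Prime ∧ m < orderOf x
  · -- a central element: transfer to an abelian Sylow subgroup
    obtain ⟨x, hxZ, hxp, hxm⟩ := hZ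
    set p := orderOf x with hp
    haveI := Fact.mk hxp
    obtain ⟨P, hP⟩ := (IsPGroup.of_card (n := 1) (G := Subgroup.zpowers x)
      (p := p) (by rw [Nat.card_zpowers, pow_one])).exists_le_sylow
    have hPprimes : ∀ q : ℕ, q.Prime → q ∣ Nat.card (P : Subgroup G) → m < q := by
      intro q hq hqP
      obtain ⟨k, hk⟩ := P.2.exists_card_eq
      rw [hk] at hqP
      rw [(Nat.prime_dvd_prime_iff_eq hq hxp).1 (hq.dvd_of_dvd_pow hqP)]
      exact hxm
    letI : CommGroup (P : Subgroup G) :=
      { (inferInstance : Group (P : Subgroup G)) with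
        mul_comm := fun a b => Subtype.ext (hab _ hPprimes a a.2 b b.2) }
    set f : G →* (P : Subgroup G) := MonoidHom.transfer (MonoidHom.id (P : Subgroup G))
    have hfx : f x ≠ 1 := by
      intro h
      have key : ∀ (k : ℕ) (g₀ : G), g₀⁻¹ * x ^ k * g₀ ∈ (P : Subgroup G) →
          g₀⁻¹ * x ^ k * g₀ = x ^ k := fun k g₀ _ => by
        rw [mul_assoc, ← Subgroup.mem_center_iff.1 (pow_mem hxZ k) g₀, inv_mul_cancel_left]
      rw [show f x = _ from MonoidHom.transfer_eq_pow _ x key, MonoidHom.id_apply] at h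
      exact P.not_dvd_index (orderOf_dvd_of_pow_eq_one (congrArg Subtype.val h))
    set M := f.ker
    have hMtop : M ≠ ⊤ := fun h => hfx (f.mem_ker.1 (show x ∈ M by rw [h]; exact Subgroup.mem_top x))
    have hMidx : ∃ k, M.index = p ^ k := by
      obtain ⟨k, hk⟩ := P.2.exists_card_eq
      have h1 : M.index ∣ p ^ k := by
        rw [← hk, Subgroup.index_ker]
        exact Subgroup.card_subgroup_dvd_card _
      obtain ⟨j, -, hj⟩ := (Nat.dvd_prime_pow hxp).1 h1
      exact ⟨j, hj⟩
    obtain ⟨k, hk⟩ := hMidx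
    obtain ⟨A, hA⟩ := hsub M hMtop
    set Nm := Subgroup.normalizer (A : Set G)
    -- Frattini argument
    have hfr : ∀ g : G, ∃ a ∈ M, a * g ∈ Nm := by
      intro g
      set A' := MulAut.conj g • A
      have hA'card : Nat.card A' = Nat.card A :=
        (Nat.card_congr (A.equivSMul (MulAut.conj g)).toEquiv).symm
      have hA'M : A' ≤ M := by
        intro y hy
        rw [Subgroup.mem_pointwise_smul_iff_inv_smul_mem] at hy
        have h2 := Subgroup.Normal.conj_mem (inferInstance : M.Normal) _ (hA.le hy) g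
        simpa [MulAut.smul_def, mul_assoc] using h2
      obtain ⟨c, hc, hle⟩ := hA.dominate hA'M (fun q hq h => hA.primes q hq (hA'card ▸ h))
      have heq : A' = MulAut.conj c • A :=
        Subgroup.eq_of_le_of_card_ge hle (by
          rw [hA'card, ← Nat.card_congr (A.equivSMul (MulAut.conj c)).toEquiv])
      refine ⟨c⁻¹, inv_mem hc, Subgroup.mem_normalizer_iff.2 fun z => ?_⟩
      have h3 : MulAut.conj (c⁻¹ * g) • A = A := by
        rw [map_mul, mul_smul]
        show MulAut.conj c⁻¹ • A' = A
        rw [heq, ← mul_smul, ← map_mul, inv_mul_cancel, map_one, one_smul]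
      conv_rhs => rw [← h3]
      rw [Subgroup.mem_pointwise_smul_iff_inv_smul_mem]
      simp [MulAut.smul_def, mul_assoc]
    have hsupNM : Nm ⊔ M = ⊤ := by
      rw [eq_top_iff]
      intro g _
      obtain ⟨a, ha, hag⟩ := hfr g
      have := mul_mem (Subgroup.mem_sup_right (S := Nm) (inv_mem ha))
        (Subgroup.mem_sup_left (T := M) hag)
      simpa using this
    have hNidx : Nm.index ∣ A.relIndex M := by
      have h1 : M.relIndex Nm = M.index := by
        rw [← Subgroup.relIndex_sup_right, hsupNM, Subgroup.relIndex_top_right]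
      have h2 : Nm.index = Nm.relIndex M := by
        have e1 := Subgroup.relIndex_mul_index (inf_le_left : Nm ⊓ M ≤ Nm)
        have e2 := Subgroup.relIndex_mul_index (inf_le_right : Nm ⊓ M ≤ M)
        rw [Subgroup.inf_relIndex_left, h1] at e1
        rw [Subgroup.inf_relIndex_right, ← e1, mul_comm (Nm.relIndex M)] at e2
        exact Nat.eq_of_mul_eq_mul_left (Nat.pos_of_ne_zero Subgroup.index_ne_zero_of_finite)
          e2.symm
      rw [h2]
      exact Subgroup.relIndex_dvd_of_le_left M Subgroup.le_normalizer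
    obtain ⟨R⟩ : Nonempty (Sylow p Nm) := inferInstance
    set R₀ := (R : Subgroup Nm).map Nm.subtype
    set H := A ⊔ R₀
    have hpidx : ¬ p ∣ R₀.index := by
      intro h
      have h1 : R₀.relIndex Nm * Nm.index = R₀.index :=
        Subgroup.relIndex_mul_index (Subgroup.map_subtype_le _)
      rw [← h1] at h
      rcases hxp.dvd_mul.1 h with h2 | h2
      · rw [Subgroup.relIndex, Subgroup.subgroupOf,
          Subgroup.comap_map_eq_self_of_injective Nm.subtype_injective] at h2
        exact R.not_dvd_index h2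
      · have := hA.index p hxp (h2.trans hNidx)
        omega
    have hHprimes : ∀ q : ℕ, q.Prime → q ∣ Nat.card H → m < q := by
      intro q hq hqH
      have hle : R₀ ≤ Subgroup.normalizer (A : Set G) := Subgroup.map_subtype_le _
      have hcard : Nat.card H ∣ Nat.card A * Nat.card R₀ := by
        have e1 : A.relIndex H = A.relIndex R₀ := by
          have hn : R₀ ⊔ A ≤ Nm := sup_le hle Subgroup.le_normalizer
          rw [← Subgroup.relIndex_subgroupOf (hn.trans' le_sup_left),
            ← Subgroup.relIndex_subgroupOf (show H ≤ Nm by rw [show H = R₀ ⊔ A from sup_comm _ _]; exact hn)]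
          haveI : (A.subgroupOf Nm).Normal := Subgroup.normal_in_normalizer
          rw [show H.subgroupOf Nm = R₀.subgroupOf Nm ⊔ A.subgroupOf Nm by
            rw [← Subgroup.subgroupOf_sup hle Subgroup.le_normalizer, sup_comm]]
          exact Subgroup.relIndex_sup_right _ _
        have e2 : Nat.card A * A.relIndex H = Nat.card H := by
          rw [Subgroup.relIndex, ← Nat.card_congr (Subgroup.subgroupOfEquivOfLe
            (le_sup_left : A ≤ H)).toEquiv, Subgroup.card_mul_index]
        rw [← e2, e1]
        refine mul_dvd_mul_left _ ?_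
        rw [Subgroup.relIndex]
        exact Subgroup.index_dvd_card _
      rcases hq.dvd_mul.1 (hqH.trans hcard) with h | h
      · exact hA.primes q hq h
      · rw [Subgroup.card_map_of_injective Nm.subtype_injective] at h
        obtain ⟨j, hj⟩ := R.2.exists_card_eq
        rw [hj] at h
        rw [(Nat.prime_dvd_prime_iff_eq hq hxp).1 (hq.dvd_of_dvd_pow h)]
        exact hxm
    refine ⟨H, le_top, hab H hHprimes, hHprimes, fun q hq hqi => ?_⟩
    rw [Subgroup.relIndex_top_right] at hqi
    by_cases hqp : q = p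
    · exact absurd (hqp ▸ hqi.trans (Subgroup.index_dvd_of_le le_sup_right)) hpidx
    · have h1 : q ∣ A.relIndex M * M.index := by
        rw [Subgroup.relIndex_mul_index hA.le]
        exact hqi.trans (Subgroup.index_dvd_of_le le_sup_left)
      rcases hq.dvd_mul.1 h1 with h | h
      · exact hA.index q hq h
      · exact absurd ((Nat.prime_dvd_prime_iff_eq hq hxp).1 (hq.dvd_of_dvd_pow (hk ▸ h))) hqp
  push Not at hZ
  -- a subgroup for the large primes of greatest order
  obtain ⟨K, hK, hmax'⟩ := Set.exists_max_image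
    {L : Subgroup G | ∀ q : ℕ, q.Prime → q ∣ Nat.card L → m < q} (fun L => Nat.card L)
    (Set.toFinite _) ⟨⊥, fun q hq h => absurd (Subgroup.card_bot (G := G) ▸ h) hq.not_dvd_one⟩
  simp only [Set.mem_ofPred_eq] at hK hmax'
  refine ⟨K, le_top, hab K hK, hK, fun q hq hqi => ?_⟩
  rw [Subgroup.relIndex_top_right] at hqi
  by_contra hqm
  push Not at hqm
  haveI := Fact.mk hq
  -- the centraliser of an element of large prime order of `K`
  have hC : ∀ x ∈ K, (orderOf x).Prime → m < orderOf x →
      IsBigHall m K (Subgroup.centralizer {x}) := by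
    intro x hx hxp hxm
    have hne : Subgroup.centralizer ({x} : Set G) ≠ ⊤ := by
      intro h
      have h1 : x ∈ Subgroup.center G := Subgroup.mem_center_iff.2 fun g =>
        (Subgroup.mem_centralizer_singleton_iff.1 (h ▸ Subgroup.mem_top g))
      have := hZ x h1 hxp
      omega
    have hKC : K ≤ Subgroup.centralizer {x} := fun k hk =>
      Subgroup.mem_centralizer_singleton_iff.2 (hab K hK k hk x hx)
    obtain ⟨A, hA⟩ := hsub _ hne
    obtain ⟨c, hc, hle⟩ := hA.dominate hKC hK
    have h1 : Nat.card K = Nat.card A := by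
      refine le_antisymm ?_ (hmax' A hA.primes)
      calc Nat.card K ≤ Nat.card (MulAut.conj c • A : Subgroup G) := Subgroup.card_le_of_le hle
        _ = Nat.card A := (Nat.card_congr (A.equivSMul (MulAut.conj c)).toEquiv).symm
    refine ⟨hKC, hab K hK, hK, fun r hr h => hA.index r hr ?_⟩
    rw [Subgroup.relIndex] at h ⊢
    have e1 := Subgroup.card_mul_index (K.subgroupOf (Subgroup.centralizer {x}))
    rw [Nat.card_congr (Subgroup.subgroupOfEquivOfLe hKC).toEquiv] at e1
    have e2 := Subgroup.card_mul_index (A.subgroupOf (Subgroup.centralizer {x}))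
    rw [Nat.card_congr (Subgroup.subgroupOfEquivOfLe hA.le).toEquiv, ← e1, h1] at e2
    rwa [Nat.eq_of_mul_eq_mul_left Nat.card_pos e2]
  have hqG : q ∣ Nat.card G := hqi.trans (Subgroup.index_dvd_card _)
  -- primes of `K` divide `|K|` fully
  have hfull : ∀ p : ℕ, p.Prime → p ∣ Nat.card K → ¬ p ∣ K.index := by
    intro p hp hpK hpi
    haveI := Fact.mk hp
    obtain ⟨⟨x, hxK⟩, hx⟩ := exists_prime_orderOf_dvd_card' p hpK
    rw [Subgroup.orderOf_mk] at hx
    have hb := hC x hxK (hx ▸ hp) (hx ▸ hK p hp hpK)
    obtain ⟨P, hP⟩ := (IsPGroup.of_card (n := 1) (G := Subgroup.zpowers x)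
      (p := p) (by rw [Nat.card_zpowers, hx, pow_one])).exists_le_sylow
    have hPpr : ∀ r : ℕ, r.Prime → r ∣ Nat.card (P : Subgroup G) → m < r := by
      intro r hr h
      obtain ⟨j, hj⟩ := P.2.exists_card_eq
      rw [hj] at h
      rw [(Nat.prime_dvd_prime_iff_eq hr hp).1 (hr.dvd_of_dvd_pow h)]
      exact hK p hp hpK
    have hPC : (P : Subgroup G) ≤ Subgroup.centralizer {x} := fun a ha =>
      Subgroup.mem_centralizer_singleton_iff.2
        (hab _ hPpr a ha x (hP (Subgroup.mem_zpowers x)))
    rw [← Subgroup.relIndex_mul_index hb.le] at hpi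
    rcases hp.dvd_mul.1 hpi with h | h
    · have := hb.index p hp h
      have := hK p hp hpK
      omega
    · exact P.not_dvd_index (h.trans (Subgroup.index_dvd_of_le hPC))
  have hqK : ¬ q ∣ Nat.card K := fun h => hfull q hq h hqi
  -- `K` is nontrivial
  obtain ⟨p, hp, hpK⟩ : ∃ p : ℕ, p.Prime ∧ p ∣ Nat.card K := by
    refine Nat.exists_prime_and_dvd fun h1 => ?_
    obtain ⟨y, hy⟩ := exists_prime_orderOf_dvd_card' (G := G) q hqG
    have := hmax' (Subgroup.zpowers y) (fun r hr h => by
      rw [Nat.card_zpowers, hy] at h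
      rw [(Nat.prime_dvd_prime_iff_eq hr hq).1 h]
      exact hqm)
    rw [Nat.card_zpowers, hy, h1] at this
    have := hq.two_le
    omega
  haveI := Fact.mk hp
  have hpm := hK p hp hpK
  obtain ⟨g, hgp, hgq⟩ := exists_orderOf_dvd_both ρ hinj hp hq (fun h => hqK (h ▸ hpK))
    (by omega) (by omega) (hpK.trans (Subgroup.card_subgroup_dvd_card K)) hqG
  set a := g ^ (orderOf g / p)
  set b := g ^ (orderOf g / q)
  have ha : orderOf a = p := orderOf_pow_orderOf_div (orderOf_pos g).ne' hgp
  have hb : orderOf b = q := orderOf_pow_orderOf_div (orderOf_pos g).ne' hgq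
  have hab' : Commute a b := Commute.pow_pow_self g _ _
  -- conjugate `a` into `K`
  obtain ⟨S⟩ : Nonempty (Sylow p K) := inferInstance
  have hS : ¬ p ∣ ((S : Subgroup K).map K.subtype).index := by
    intro h
    rw [← Subgroup.relIndex_mul_index (Subgroup.map_subtype_le _)] at h
    rcases hp.dvd_mul.1 h with h2 | h2
    · rw [Subgroup.relIndex, Subgroup.subgroupOf,
        Subgroup.comap_map_eq_self_of_injective K.subtype_injective] at h2
      exact S.not_dvd_index h2
    · exact hfull p hp hpK h2
  let S' : Sylow p G := (S.2.map K.subtype).toSylow hS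
  obtain ⟨T, hT⟩ := (IsPGroup.of_card (n := 1) (G := Subgroup.zpowers a)
    (p := p) (by rw [Nat.card_zpowers, ha, pow_one])).exists_le_sylow
  obtain ⟨t, rfl⟩ := MulAction.exists_smul_eq G S' T
  have hin := hT (Subgroup.mem_zpowers a)
  rw [Sylow.coe_subgroup_smul, Subgroup.mem_pointwise_smul_iff_inv_smul_mem] at hin
  have hxK : t⁻¹ * a * t ∈ K := by
    have := Subgroup.map_subtype_le _ hin
    simpa [MulAut.smul_def, mul_assoc] using this
  set x := t⁻¹ * a * t with hxdef
  have hxo : orderOf x = p := by
    rw [hxdef, show t⁻¹ * a * t = MulAut.conj t⁻¹ a by simp, MulEquiv.orderOf_eq, ha]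
  have hh := hC x hxK (hxo ▸ hp) (hxo ▸ hpm)
  have hbC : t⁻¹ * b * t ∈ Subgroup.centralizer ({x} : Set G) := by
    rw [Subgroup.mem_centralizer_singleton_iff, hxdef]
    calc t⁻¹ * b * t * (t⁻¹ * a * t) = t⁻¹ * (b * a) * t := by group
      _ = t⁻¹ * (a * b) * t := by rw [hab'.eq]
      _ = t⁻¹ * a * t * (t⁻¹ * b * t) := by group
  have hqC : q ∣ Nat.card (Subgroup.centralizer ({x} : Set G)) := by
    rw [← hb, ← MulEquiv.orderOf_eq (MulAut.conj t⁻¹) b]
    exact Subgroup.orderOf_dvd_natCard _ (by simpa using hbC)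
  rw [← Subgroup.card_mul_index (K.subgroupOf (Subgroup.centralizer {x})),
    Nat.card_congr (Subgroup.subgroupOfEquivOfLe hh.le).toEquiv] at hqC
  rcases hq.dvd_mul.1 hqC with h | h
  · exact hqK h
  · have := hh.index q hq h
    omega

end Cfsg.Agent.H21.SmallDegree
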