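import Mathlib
import Cfsg.Prelude.Def_Characters
import Cfsg.Agent.H27.Monomial
import Cfsg.Agent.H25.CharInd
import Cfsg.Agent.H25.CharValues
import Cfsg.Agent.H26.CharBasic

/-!
# Abelian subgroups of small index in nilpotent linear groups

A nilpotent group with a faithful representation of degree `n` has an abelian normal subgroup of
index dividing `n!`, since all its irreducible characters are monomial.
-/

set_option autoImplicit false

open Module

namespace Cfsg.Agent.H21.SmallDegree

/-- A finite nilpotent group with a faithful representation of degree `n` has an abelian normal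
subgroup of index dividing `n!`. -/
theorem exists_abelian_index_dvd_factorial {G : Type*} [Group G] [Finite G] [Group.IsNilpotent G]
    {V : Type*} [AddCommGroup V] [Module ℂ V] [FiniteDimensional ℂ V]
    (ρ : Representation ℂ G V) (hinj : Function.Injective ρ) :
    ∃ D : Subgroup G, D.Normal ∧ (∀ a ∈ D, ∀ b ∈ D, a * b = b * a) ∧
      D.index ∣ (finrank ℂ V).factorial := by
  classical
  have : Fintype G := Fintype.ofFinite G
  obtain ⟨s, hs⟩ := H26.exists_multiset_irr ρ
  choose H lam hH using fun χ : Cfsg.IrrCharacter G =>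
    H27.nilpotent_monomial (Nat.card G) G le_rfl χ.1 χ.2
  have hdeg : ∀ χ, χ.1 1 = ((H χ).index : ℂ) := fun χ => by
    rw [hH χ, H25.indFun_one]
    simp
  set ι := {χ // χ ∈ s.toFinset}
  let f : G →* ∀ χ : ι, Equiv.Perm (G ⧸ H χ.1) :=
    Pi.monoidHom fun χ : ι => MulAction.toPermHom G (G ⧸ H χ.1)
  have hmem : ∀ a ∈ f.ker, ∀ χ ∈ s.toFinset, a ∈ (H χ).normalCore := by
    intro a ha χ hχ
    rw [Subgroup.normalCore_eq_ker, MonoidHom.mem_ker]
    exact congrFun (f.mem_ker.1 ha) ⟨χ, hχ⟩
  refine ⟨f.ker, inferInstance, fun a ha b hb => ?_, ?_⟩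
  · set c := a * b * a⁻¹ * b⁻¹ with hc
    have hval : ρ.character c = (finrank ℂ V : ℂ) := by
      rw [← ρ.char_one, hs, Pi.multiset_sum_apply, Pi.multiset_sum_apply, Multiset.map_map,
        Multiset.map_map]
      refine congrArg Multiset.sum (Multiset.map_congr rfl fun χ hχ => ?_)
      show χ.1 c = χ.1 1
      rw [hH χ, H25.indFun_apply, H25.indFun_apply]
      congr 1
      refine Finset.sum_congr rfl fun x _ => ?_
      have hmH : ∀ y ∈ f.ker, x⁻¹ * y * x ∈ H χ := fun y hy =>
        Subgroup.normalCore_le _ (by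
          simpa using (Subgroup.normalCore_normal (H χ)).conj_mem _
            (hmem y hy χ (Multiset.mem_toFinset.2 hχ)) x⁻¹)
      set a' : H χ := ⟨_, hmH a ha⟩
      set b' : H χ := ⟨_, hmH b hb⟩
      have e : x⁻¹ * c * x = ((a' * b' * a'⁻¹ * b'⁻¹ : H χ) : G) := by
        simp only [Subgroup.coe_mul, InvMemClass.coe_inv, a', b', hc]
        group
      rw [e, H25.extendByZero_apply_coe,
        show x⁻¹ * 1 * x = ((1 : H χ) : G) by simp, H25.extendByZero_apply_coe]
      simp only [map_mul, map_inv, map_one, mul_inv_cancel_comm, mul_inv_cancel]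
    have h1 : c = 1 := hinj (by rw [map_one]; exact (H25.char_eq_degree_iff ρ c).1 hval)
    rw [hc, mul_inv_eq_one, mul_inv_eq_iff_eq_mul] at h1
    exact h1
  · rw [Subgroup.index_ker]
    refine (Subgroup.card_subgroup_dvd_card f.range).trans ?_
    rw [Nat.card_pi]
    simp only [Nat.card_perm, ← Subgroup.index_eq_card]
    refine (Nat.prod_factorial_dvd_factorial_sum _ _).trans (Nat.factorial_dvd_factorial ?_)
    have h1 : (finrank ℂ V : ℂ) = ((s.map fun χ => (H χ).index).sum : ℕ) := by
      rw [← ρ.char_one, hs, Pi.multiset_sum_apply, Multiset.map_map, Nat.cast_multiset_sum,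
        Multiset.map_map]
      exact congrArg Multiset.sum (Multiset.map_congr rfl fun χ _ => hdeg χ)
    have h2 : finrank ℂ V = (s.map fun χ => (H χ).index).sum := by exact_mod_cast h1
    rw [h2, Finset.univ_eq_attach, Finset.sum_attach s.toFinset fun χ => (H χ).index,
      Finset.sum_multiset_map_count]
    refine Finset.sum_le_sum fun χ hχ => ?_
    rw [smul_eq_mul]
    exact Nat.le_mul_of_pos_left _ (Multiset.count_pos.2 (Multiset.mem_toFinset.1 hχ))

end Cfsg.Agent.H21.SmallDegree
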