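import Mathlib
import Cfsg.Agent.H25.Jordan
import Cfsg.Agent.H21.SmallDegree.Hall
import Cfsg.Agent.H21.SmallDegree.Monomial

/-!
# An explicit bound in Jordan's theorem
-/

set_option autoImplicit false

open Module

namespace Cfsg.Agent.H21.SmallDegree

/-- For a normal subgroup `A`, its index divides `[K : A ⊓ K]` times the index of `K`. -/
theorem index_dvd_relIndex_mul_index {G : Type*} [Group G] (A K : Subgroup G) [A.Normal] :
    A.index ∣ A.relIndex K * K.index := by
  rw [← Subgroup.relIndex_mul_index (le_sup_right : A ≤ K ⊔ A), Subgroup.relIndex_sup_right]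
  exact mul_dvd_mul_left _ (Subgroup.index_dvd_of_le le_sup_left)

/-- A group with a faithful complex representation of degree `n` has an abelian normal subgroup of
index at most `n! * 12 ^ (n * (π(n+1) + 1))`. -/
theorem exists_abelian_normal_index_le {G : Type*} [Group G] [Finite G] {n : ℕ}
    (ρ : Representation ℂ G (Fin n → ℂ)) (hinj : Function.Injective ρ) :
    ∃ A : Subgroup G, A.Normal ∧ (∀ x ∈ A, ∀ y ∈ A, x * y = y * x) ∧
      A.index ≤ n.factorial * 12 ^ (n * (Nat.primeCounting (n + 1) + 1)) := by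
  classical
  obtain ⟨A, hAn, hAc, hA⟩ := H25.exists_abelian_normal_uniform_bound ρ hinj
  refine ⟨A, hAn, hAc, ?_⟩
  haveI := hAn
  obtain ⟨B, hB⟩ := exists_isBigHall (Nat.card G) ρ hinj le_rfl
  rw [Module.finrank_fin_fun] at hB
  set S := Nat.primesBelow (n + 2) with hS
  have hSmem : ∀ p, p ∈ S ↔ p ≤ n + 1 ∧ p.Prime := fun p => by
    rw [hS, Nat.mem_primesBelow]; exact and_congr_left fun _ => Nat.lt_succ_iff
  -- the contribution of one small prime
  have hsmall : ∀ p : ℕ, ∃ K : Subgroup G, p ∈ S →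
      (¬ p ∣ K.index ∧ A.relIndex K ≤ p ^ n.factorial.factorization p * 12 ^ n) := by
    intro p
    by_cases hp : p ∈ S
    swap
    · exact ⟨⊤, fun h => absurd h hp⟩
    haveI := Fact.mk ((hSmem p).1 hp).2
    obtain ⟨P⟩ : Nonempty (Sylow p G) := inferInstance
    refine ⟨P, fun _ => ⟨P.not_dvd_index, ?_⟩⟩
    haveI : Group.IsNilpotent (P : Subgroup G) := P.2.isNilpotent
    obtain ⟨D, -, hDc, hDi⟩ := exists_abelian_index_dvd_factorial
      (ρ.comp (P : Subgroup G).subtype) (hinj.comp (P : Subgroup G).subtype_injective)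
    rw [Module.finrank_fin_fun] at hDi
    set D₀ := D.map (P : Subgroup G).subtype
    have hD₀ : D₀ ≤ P := Subgroup.map_subtype_le D
    have hbound : D.index ≤ p ^ n.factorial.factorization p := by
      obtain ⟨j, hj⟩ := P.2.index D
      rw [hj] at hDi ⊢
      exact Nat.pow_le_pow_right (Fact.out : p.Prime).one_le
        ((Nat.Prime.pow_dvd_iff_le_factorization Fact.out (Nat.factorial_ne_zero n)).1 hDi)
    have h1 : A.relIndex D₀ ≤ 12 ^ n := by
      refine hA D₀ ?_
      rintro _ ⟨a, ha, rfl⟩ _ ⟨b, hb, rfl⟩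
      exact congrArg Subtype.val (hDc a ha b hb)
    have h2 : D₀.relIndex P = D.index := by
      rw [Subgroup.relIndex, Subgroup.subgroupOf,
        Subgroup.comap_map_eq_self_of_injective (P : Subgroup G).subtype_injective]
    calc A.relIndex P ≤ (A ⊓ D₀).relIndex P :=
          Subgroup.relIndex_le_of_le_left inf_le_left Subgroup.index_ne_zero_of_finite
      _ = A.relIndex D₀ * D₀.relIndex P := by
          rw [← Subgroup.inf_relIndex_right A D₀,
            Subgroup.relIndex_mul_relIndex _ _ _ inf_le_right hD₀]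
      _ ≤ 12 ^ n * p ^ n.factorial.factorization p :=
          Nat.mul_le_mul h1 (h2 ▸ hbound)
      _ = _ := mul_comm _ _
  choose K hK using hsmall
  have hdvd : A.index ∣ (∏ p ∈ S, A.relIndex (K p)) * A.relIndex B := by
    rw [Nat.dvd_iff_prime_pow_dvd_dvd]
    intro r j hr hrj
    have hstep : ∀ L : Subgroup G, ¬ r ∣ L.index → r ^ j ∣ A.relIndex L := fun L hL =>
      (Nat.Coprime.pow_left j (hr.coprime_iff_not_dvd.2 hL)).dvd_of_dvd_mul_right
        (hrj.trans (index_dvd_relIndex_mul_index A L))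
    by_cases hrS : r ∈ S
    · exact dvd_mul_of_dvd_left
        ((hstep _ (hK r hrS).1).trans (Finset.dvd_prod_of_mem (fun p => A.relIndex (K p)) hrS)) _
    · refine dvd_mul_of_dvd_right (hstep B fun h => hrS ((hSmem r).2 ⟨?_, hr⟩)) _
      exact hB.index r hr (by rwa [Subgroup.relIndex_top_right])
  have hpos : 0 < (∏ p ∈ S, A.relIndex (K p)) * A.relIndex B :=
    Nat.mul_pos (Finset.prod_pos fun p _ =>
      Nat.pos_of_ne_zero Subgroup.index_ne_zero_of_finite)
      (Nat.pos_of_ne_zero Subgroup.index_ne_zero_of_finite)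
  have hfac : (∏ p ∈ S, p ^ n.factorial.factorization p) ≤ n.factorial := by
    refine Nat.le_of_dvd (Nat.factorial_pos n) ?_
    conv_rhs => rw [← Nat.prod_factorization_pow_eq_self (Nat.factorial_ne_zero n)]
    rw [← Finset.prod_subset (s₁ := S.filter (· ∈ n.factorial.factorization.support))
      (Finset.filter_subset _ _) fun p hp h => by
        rw [Finset.mem_filter, not_and] at h
        rw [Finsupp.notMem_support_iff.1 (h hp), pow_zero]]
    exact Finset.prod_dvd_prod_of_subset _ _ _ fun p hp => (Finset.mem_filter.1 hp).2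
  have hcard : S.card = Nat.primeCounting (n + 1) :=
    Nat.primesBelow_card_eq_primeCounting' (n + 2)
  calc A.index ≤ (∏ p ∈ S, A.relIndex (K p)) * A.relIndex B := Nat.le_of_dvd hpos hdvd
    _ ≤ (∏ p ∈ S, p ^ n.factorial.factorization p * 12 ^ n) * 12 ^ n :=
        Nat.mul_le_mul (Finset.prod_le_prod' fun p hp => (hK p hp).2) (hA B hB.comm)
    _ = (∏ p ∈ S, p ^ n.factorial.factorization p) * 12 ^ (n * (S.card + 1)) := by
        rw [Finset.prod_mul_distrib, Finset.prod_const, mul_assoc, ← pow_mul, ← pow_add]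
        ring_nf
    _ ≤ _ := by
        rw [hcard]
        exact Nat.mul_le_mul_right _ hfac

end Cfsg.Agent.H21.SmallDegree
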