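import Mathlib
import Cfsg.Prelude.Def_Characters
import Cfsg.Prelude.Def_Blocks
import Cfsg.Agent.H26.CharOrtho
import Cfsg.Agent.H25.CharInd
import Cfsg.Agent.H25.IndRep
import Cfsg.Agent.H25.CharIntegral
import Cfsg.Agent.H39.IndFun
import Cfsg.Agent.H43.Constituents
import Cfsg.Agent.H44.Inflation

/-!
# Groups whose irreducible degrees are less than a prime `p`

Such a group has a normal abelian Sylow `p`-subgroup: the permutation character on the Sylow
subgroups has too few fixed vectors of a Sylow subgroup to carry its degree.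
-/

set_option autoImplicit false

open Module
open scoped ComplexConjugate Pointwise

namespace Cfsg.Agent.H21.SmallDegree

variable {G : Type*} [Group G] [Finite G]

/-- Every irreducible degree of a subgroup is at most some irreducible degree of the group. -/
theorem exists_charDegree_ge (H : Subgroup G) (θ : Cfsg.IrrCharacter H) :
    ∃ χ : Cfsg.IrrCharacter G, Cfsg.charDegree θ.1 ≤ Cfsg.charDegree χ.1 := by
  classical
  have : Fintype G := Fintype.ofFinite G
  have : Fintype H := Fintype.ofFinite H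
  obtain ⟨χ, hχ⟩ := H43.exists_above H θ
  refine ⟨χ, ?_⟩
  have hc : Cfsg.IsCharacter H (fun h : H => χ.1 h) :=
    H26.isCharacter_comp (H26.irr_isCharacter χ) H.subtype
  have h1 := H43.apply_one_eq_sum_mult hc
  simp only [← H44.cast_charDegree, Subgroup.coe_one] at h1
  have h2 : Cfsg.charDegree χ.1
      = ∑ ψ : Cfsg.IrrCharacter H, H43.mult (fun h : H => χ.1 h) ψ * Cfsg.charDegree ψ.1 := by
    exact_mod_cast h1
  rw [h2]
  refine le_trans ?_ (Finset.single_le_sum (fun ψ _ => Nat.zero_le _) (Finset.mem_univ θ))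
  exact Nat.le_mul_of_pos_left _ (Nat.pos_of_ne_zero hχ)

/-- If all irreducible characters are linear the group is commutative. -/
theorem comm_of_linear (h : ∀ χ : Cfsg.IrrCharacter G, Cfsg.charDegree χ.1 = 1) (a b : G) :
    a * b = b * a := by
  classical
  have : Fintype G := Fintype.ofFinite G
  set c := a * b * a⁻¹ * b⁻¹ with hc
  have hval : ∀ χ : Cfsg.IrrCharacter G, χ.1 1 = χ.1 c := by
    intro χ
    obtain ⟨d, σ, hσ, hσχ⟩ := χ.2
    have hd : (d : ℂ) = 1 := by
      have h1 := H44.cast_charDegree χ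
      rw [h χ, ← hσχ, σ.char_one, Module.finrank_fin_fun] at h1
      exact_mod_cast h1.symm
    obtain rfl : d = 1 := by exact_mod_cast hd
    have hcomm : ∀ x y : G, σ x * σ y = σ y * σ x := by
      intro x y
      obtain ⟨r, hr⟩ : ∃ r : ℂ, σ x = r • LinearMap.id := by
        refine ⟨σ x (fun _ => 1) 0, LinearMap.ext fun v => funext fun i => ?_⟩
        have hv : v = v 0 • fun _ => (1 : ℂ) := funext fun j => by simp [Subsingleton.elim j 0]
        conv_lhs => rw [hv]
        rw [map_smul, Subsingleton.elim i 0]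
        simp [mul_comm]
      rw [hr]
      ext v
      simp
    have h2 : σ c = 1 := by
      rw [hc, map_mul, map_mul, map_mul, hcomm a b, mul_assoc (σ b) (σ a),
        ← map_mul σ a a⁻¹, mul_inv_cancel, map_one, mul_one, ← map_mul, mul_inv_cancel, map_one]
    rw [← hσχ]
    unfold Representation.character
    rw [h2, map_one σ]
  have h1 : c = 1 := isConj_one_right.mp ((H26.isConj_iff_forall_irr (1 : G) c).2 hval)
  rw [hc, mul_inv_eq_one, mul_inv_eq_iff_eq_mul] at h1
  exact h1

/-- A Sylow `p`-subgroup is abelian when the degrees are less than `p`. -/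
theorem comm_of_degree_lt {p : ℕ} [Fact p.Prime] (P : Sylow p G)
    (hb : ∀ χ : Cfsg.IrrCharacter G, Cfsg.charDegree χ.1 < p) :
    ∀ x ∈ (P : Subgroup G), ∀ y ∈ (P : Subgroup G), x * y = y * x := by
  intro x hx y hy
  refine congrArg Subtype.val (comm_of_linear (G := (P : Subgroup G)) (fun θ => ?_) ⟨x, hx⟩ ⟨y, hy⟩)
  obtain ⟨χ, hχ⟩ := exists_charDegree_ge _ θ
  have hlt : Cfsg.charDegree θ.1 < p := hχ.trans_lt (hb χ)
  obtain ⟨d, σ, hσ, hσθ⟩ := θ.2
  have hdeg : Cfsg.charDegree θ.1 = finrank ℂ (Fin d → ℂ) := by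
    have h1 := H44.cast_charDegree θ
    rw [← hσθ, σ.char_one] at h1
    rw [← hσθ]
    exact_mod_cast h1
  obtain ⟨k, hk⟩ := P.2.exists_card_eq
  have := Fintype.ofFinite (P : Subgroup G)
  obtain ⟨j, -, hj⟩ := (Nat.dvd_prime_pow Fact.out).1 (hk ▸ H25.finrank_dvd_card σ)
  rw [hdeg, hj] at hlt ⊢
  rcases Nat.eq_zero_or_pos j with rfl | hj0
  · rfl
  · exact absurd hlt (not_lt.2 (Nat.le_self_pow hj0.ne' p))

/-- A Sylow `p`-subgroup is normal when the degrees are less than `p`. -/
theorem normal_of_degree_lt {p : ℕ} [Fact p.Prime] (P : Sylow p G)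
    (hb : ∀ χ : Cfsg.IrrCharacter G, Cfsg.charDegree χ.1 < p) : (P : Subgroup G).Normal := by
  classical
  have : Fintype G := Fintype.ofFinite G
  set N := Subgroup.normalizer ((P : Subgroup G) : Set G) with hN
  have : Fintype N := Fintype.ofFinite N
  have : Fintype (P : Subgroup G) := Fintype.ofFinite _
  set π : G → ℂ := Cfsg.indFun N (fun _ => 1)
  have hπ : Cfsg.IsCharacter G π :=
    H25.isCharacter_indFun N (H26.isCharacter_of_irr (H26.oneIrr N).2)
  obtain ⟨a, ha, haπ⟩ := H26.exists_nat_coeffs hπ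
  -- multiplicities of the trivial character of `P`
  have hPc : ∀ χ : Cfsg.IrrCharacter G,
      Cfsg.IsCharacter (P : Subgroup G) (fun x : (P : Subgroup G) => χ.1 x) := fun χ =>
    H26.isCharacter_comp (H26.irr_isCharacter χ) (P : Subgroup G).subtype
  set b : Cfsg.IrrCharacter G → ℕ :=
    fun χ => H43.mult (fun x : (P : Subgroup G) => χ.1 x) (H26.oneIrr _) with hbdef
  have hab : ∀ χ, a χ ≠ 0 → 1 ≤ b χ := by
    intro χ hχ
    have hNc : Cfsg.IsCharacter N (fun x : N => χ.1 x) :=
      H26.isCharacter_comp (H26.irr_isCharacter χ) N.subtype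
    obtain ⟨c, hc, hcN⟩ := H26.exists_nat_coeffs hNc
    have h1 : c (H26.oneIrr N) = a χ := by
      have h := ha χ
      rw [H25.classInner_indFun_left N _ _ (H26.irr_isClassFunction χ)] at h
      have h' : (c (H26.oneIrr N) : ℂ) = (a χ : ℂ) := by
        rw [← hc, ← H25.conj_classInner]
        show conj (Cfsg.classInner (fun _ : N => (1 : ℂ)) _) = _
        rw [h, Complex.conj_natCast]
      exact_mod_cast h'
    let i : (P : Subgroup G) →* N := Subgroup.inclusion Subgroup.le_normalizer
    have h2 : (fun x : (P : Subgroup G) => χ.1 x) = ∑ ψ : Cfsg.IrrCharacter N,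
        (c ψ : ℂ) • (ψ.1 ∘ i) := by
      funext x
      have := congrFun hcN (i x)
      rw [Finset.sum_apply] at this ⊢
      exact this
    have h3 : ((b χ : ℕ) : ℂ) = ∑ ψ : Cfsg.IrrCharacter N,
        (c ψ : ℂ) * (H43.mult (ψ.1 ∘ i) (H26.oneIrr _) : ℂ) := by
      rw [hbdef]
      show ((H43.mult _ _ : ℕ) : ℂ) = _
      rw [← H43.classInner_eq_mult (hPc χ), h2, H26.classInner_sum_left]
      refine Finset.sum_congr rfl fun ψ _ => ?_
      rw [H26.classInner_smul_left,
        H43.classInner_eq_mult (H26.isCharacter_comp (H26.irr_isCharacter ψ) i)]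
    have h4 : b χ = ∑ ψ : Cfsg.IrrCharacter N, c ψ * H43.mult (ψ.1 ∘ i) (H26.oneIrr _) := by
      exact_mod_cast h3
    have h5 : H43.mult ((H26.oneIrr N).1 ∘ i) (H26.oneIrr _) = 1 := by
      have h := H43.classInner_eq_mult (H26.isCharacter_comp (H26.irr_isCharacter (H26.oneIrr N)) i)
        (H26.oneIrr (P : Subgroup G))
      have e : ((H26.oneIrr N).1 ∘ i) = (H26.oneIrr (P : Subgroup G)).1 := rfl
      rw [e, H26.classInner_irr, if_pos rfl] at h
      rw [e]
      exact_mod_cast h.symm
    rw [h4]
    refine le_trans ?_ (Finset.single_le_sum (fun ψ _ => Nat.zero_le _)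
      (Finset.mem_univ (H26.oneIrr N)))
    rw [h5, h1, mul_one]
    omega
  -- the trivial character occurs once
  have ha1 : a (H26.oneIrr G) = 1 := by
    have h := ha (H26.oneIrr G)
    rw [H25.classInner_indFun_left N _ _ (H26.irr_isClassFunction _)] at h
    change Cfsg.classInner (H26.oneIrr N).1 (H26.oneIrr N).1 = _ at h
    rw [H26.classInner_irr, if_pos rfl] at h
    exact_mod_cast h.symm
  -- degree count
  have hdeg : N.index ≤ 1 + (p - 1) * ((∑ χ, a χ) - 1) := by
    have h1 : (N.index : ℂ) = ∑ χ : Cfsg.IrrCharacter G, (a χ : ℂ) * (Cfsg.charDegree χ.1 : ℂ) := by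
      have h := congrFun haπ 1
      rw [show π 1 = (N.index : ℂ) by simp [π, H25.indFun_one]] at h
      rw [h, Finset.sum_apply]
      exact Finset.sum_congr rfl fun χ _ => by rw [H44.cast_charDegree]; rfl
    have h2 : N.index = ∑ χ : Cfsg.IrrCharacter G, a χ * Cfsg.charDegree χ.1 := by
      exact_mod_cast h1
    have hd1 : Cfsg.charDegree (H26.oneIrr G).1 = 1 := by
      have h := H44.cast_charDegree (H26.oneIrr G)
      rw [H26.oneIrr_val] at h
      exact_mod_cast h
    rw [h2, ← Finset.add_sum_erase _ _ (Finset.mem_univ (H26.oneIrr G)),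
      ← Finset.add_sum_erase _ a (Finset.mem_univ (H26.oneIrr G)), ha1, hd1,
      Nat.add_sub_cancel_left, Finset.mul_sum, one_mul]
    refine Nat.add_le_add_left (Finset.sum_le_sum fun χ _ => ?_) 1
    rw [mul_comm]
    exact Nat.mul_le_mul_right _ (by have := hb χ; omega)
  -- orbits of `P`
  set Ω := MulAction.orbitRel.Quotient (P : Subgroup G) (G ⧸ N)
  have : Fintype Ω := Fintype.ofFinite _
  have horb : (∑ χ, a χ) ≤ Fintype.card Ω := by
    have h1 : Cfsg.classInner (fun x : (P : Subgroup G) => π x)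
        (H26.oneIrr (P : Subgroup G)).1 = (Fintype.card Ω : ℂ) := by
      unfold Cfsg.classInner
      simp only [H26.oneIrr_val, map_one, mul_one, π, H39.indFun_one_eq_card_fixed]
      have hB := MulAction.sum_card_fixedBy_eq_card_orbits_mul_card_group (P : Subgroup G) (G ⧸ N)
      have e : ∀ x : (P : Subgroup G), Nat.card {q : G ⧸ N // (x : G) • q = q}
          = Fintype.card (MulAction.fixedBy (G ⧸ N) x) := fun x =>
        Nat.card_eq_fintype_card
      rw [← Nat.cast_sum, Finset.sum_congr rfl fun x _ => e x, hB, Nat.cast_mul,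
        Nat.card_eq_fintype_card, mul_comm (Fintype.card Ω : ℂ),
        inv_mul_cancel_left₀ (Nat.cast_ne_zero.2 Fintype.card_ne_zero)]
    have h2 : (fun x : (P : Subgroup G) => π x)
        = ∑ χ : Cfsg.IrrCharacter G, (a χ : ℂ) • fun x : (P : Subgroup G) => χ.1 x := by
      funext x
      have := congrFun haπ (x : G)
      simpa using this
    rw [h2, H26.classInner_sum_left] at h1
    have h3 : ((∑ χ, a χ * b χ : ℕ) : ℂ) = (Fintype.card Ω : ℂ) := by
      rw [← h1, Nat.cast_sum]
      refine Finset.sum_congr rfl fun χ _ => ?_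
      rw [H26.classInner_smul_left, H43.classInner_eq_mult (hPc χ), Nat.cast_mul]
    rw [← (show ∑ χ, a χ * b χ = Fintype.card Ω by exact_mod_cast h3)]
    refine Finset.sum_le_sum fun χ _ => ?_
    rcases Nat.eq_zero_or_pos (a χ) with h | h
    · simp [h]
    · exact Nat.le_mul_of_pos_right _ (hab χ h.ne')
  have hsize : p * (Fintype.card Ω - 1) + 1 ≤ N.index := by
    have hfix : ∀ q : G ⧸ N, (∀ x : (P : Subgroup G), x • q = q) → q = ((1 : G) : G ⧸ N) := by
      intro q
      refine QuotientGroup.induction_on q fun g hg => ?_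
      set P' := MulAut.conj g⁻¹ • (P : Subgroup G)
      have hle : P' ≤ N := by
        intro y hy
        rw [Subgroup.mem_pointwise_smul_iff_inv_smul_mem] at hy
        have h' : ((g * y * g⁻¹) * g : G) = g * y := by group
        have := hg ⟨g * y * g⁻¹, by simpa [MulAut.smul_def, mul_assoc] using hy⟩
        rw [show (⟨g * y * g⁻¹, _⟩ : (P : Subgroup G)) • ((g : G) : G ⧸ N)
          = ((((g * y * g⁻¹) * g : G)) : G ⧸ N) from rfl, h', QuotientGroup.eq] at this
        have := inv_mem this
        simpa [mul_assoc] using this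
      have hP' : IsPGroup p P' := P.2.of_equiv ((P : Subgroup G).equivSMul (MulAut.conj g⁻¹))
      have heq : P' ≤ P := by
        have h1 := IsPGroup.to_sup_of_normal_right' hP' P.2 hle
        exact le_sup_left.trans (P.is_maximal' h1 le_sup_right).le
      rw [QuotientGroup.eq, mul_one]
      have h2 : P' = P := Subgroup.eq_of_le_of_card_ge heq
        (le_of_eq (Nat.card_congr ((P : Subgroup G).equivSMul (MulAut.conj g⁻¹)).toEquiv))
      rw [hN, Subgroup.mem_normalizer_iff]
      intro y
      conv_rhs => rw [← h2]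
      rw [Subgroup.mem_pointwise_smul_iff_inv_smul_mem]
      simp [MulAut.smul_def, mul_assoc]
    rw [Subgroup.index_eq_card, Nat.card_eq_fintype_card,
      Fintype.card_congr (MulAction.selfEquivSigmaOrbits (P : Subgroup G) (G ⧸ N)),
      Fintype.card_sigma]
    set ω₀ : Ω := Quotient.mk'' ((1 : G) : G ⧸ N)
    rw [← Finset.add_sum_erase _ _ (Finset.mem_univ ω₀), add_comm (p * _) 1]
    refine Nat.add_le_add ?_ ?_
    · exact Fintype.card_pos_iff.2 ⟨⟨_, MulAction.mem_orbit_self _⟩⟩
    · calc p * (Fintype.card Ω - 1) = ∑ _ω ∈ Finset.univ.erase ω₀, p := by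
            rw [Finset.sum_const, Finset.card_erase_of_mem (Finset.mem_univ _), Finset.card_univ,
              smul_eq_mul, mul_comm]
        _ ≤ _ := by
          refine Finset.sum_le_sum fun ω hω => ?_
          obtain ⟨k, hk⟩ := P.2.card_orbit ω.out
          rw [Nat.card_eq_fintype_card] at hk
          rw [hk]
          rcases Nat.eq_zero_or_pos k with rfl | hk0
          · exfalso
            refine (Finset.mem_erase.1 hω).1 ?_
            rw [pow_zero, Fintype.card_eq_one_iff] at hk
            obtain ⟨z, hz⟩ := hk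
            have h := hfix ω.out fun x =>
              (congrArg Subtype.val ((hz ⟨x • ω.out, MulAction.mem_orbit _ x⟩).trans
                (hz ⟨ω.out, MulAction.mem_orbit_self _⟩).symm))
            rw [show ω₀ = Quotient.mk'' ω.out by rw [h]]
            exact (Quotient.out_eq' ω).symm
          · exact Nat.le_self_pow hk0.ne' p
  have hidx : N.index = 1 := by
    have hsum1 : 1 ≤ ∑ χ, a χ := ha1 ▸
      Finset.single_le_sum (fun χ _ => Nat.zero_le (a χ)) (Finset.mem_univ (H26.oneIrr G))
    obtain ⟨q, hq⟩ : ∃ q, p = q + 1 := ⟨p - 1, by have := (Fact.out : p.Prime).pos; omega⟩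
    subst hq
    simp only [Nat.add_sub_cancel, Nat.add_mul, one_mul] at hdeg hsize
    have hmono : q * ((∑ χ, a χ) - 1) ≤ q * (Fintype.card Ω - 1) :=
      Nat.mul_le_mul_left q (by omega)
    have h0 : Fintype.card Ω - 1 = 0 := by omega
    rw [h0, mul_zero] at hmono
    omega
  exact Subgroup.normalizer_eq_top_iff.1 (Subgroup.index_eq_one.1 hidx)

end Cfsg.Agent.H21.SmallDegree
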